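import Cfsg.Agent.Lib.Helper23.AutOut3
import Cfsg.Agent.Lib.Helper23.AutAdm
import Cfsg.Agent.S1035
import Cfsg.Agent.S1054
import Cfsg.Agent.S1082

set_option autoImplicit false
set_option maxRecDepth 1000000

/-! The order of `Aut(PΩ⁺_8(q))` through `D₄(q)`. -/

namespace Cfsg.Agent.Lib.Helper95.AutP

open Cfsg.Lie Cfsg.Agent.Lib.Helper23

theorem card_symlen_D4 :
    Fintype.card {π : Equiv.Perm (Fin chevD4.rank) // chevD4.IsDiagramSymmetry π ∧ LenPres chevD4 π} = 6 := by
  decide +kernel

theorem card_adm_D4 (F : Type*) [Field F] :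
    Nat.card {π : Equiv.Perm (Fin chevD4.rank) // chevD4.IsDiagramSymmetry π ∧ LenOK chevD4 F π} =
    6 := by
  rw [Nat.card_congr (Equiv.subtypeEquivRight fun π =>
      (⟨fun x => ⟨x.1, by
          rcases x.2 with h1 | ⟨h1, _⟩ | ⟨h1 | h1, _⟩
          · exact h1
          · exact absurd (congrArg ChevalleyDatum.nroots h1) (by decide)
          · exact absurd (congrArg ChevalleyDatum.nroots h1) (by decide)
          · exact absurd (congrArg ChevalleyDatum.nroots h1) (by decide)⟩,
        fun x => ⟨x.1, Or.inl x.2⟩⟩ :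
        chevD4.IsDiagramSymmetry π ∧ LenOK chevD4 F π ↔ chevD4.IsDiagramSymmetry π ∧ LenPres chevD4 π)),
      Nat.card_eq_fintype_card, card_symlen_D4]

/-- `|Aut G| = |Out G| |G|` for a non-abelian simple group -/
theorem card_mulAut_of_simple (G : Type*) [Group G] (hs : IsSimpleGroup G)
    (hnc : ¬ IsMulCommutative G) :
    Nat.card (MulAut G) = Nat.card (Cfsg.Out G) * Nat.card G := by
  rw [Subgroup.card_eq_card_quotient_mul_card_subgroup (Cfsg.Inn G)]
  congr 1
  have hinj : Function.Injective (MulAut.conj : G →* MulAut G) := by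
    rw [← MonoidHom.ker_eq_bot_iff]
    rcases hs.eq_bot_or_eq_top_of_normal (MulAut.conj : G →* MulAut G).ker inferInstance with h | h
    · exact h
    · exfalso
      apply hnc
      refine ⟨⟨fun a b => ?_⟩⟩
      have ha : a ∈ (MulAut.conj : G →* MulAut G).ker := by rw [h]; trivial
      rw [MonoidHom.mem_ker] at ha
      have := congrArg (fun φ : MulAut G => φ b) ha
      simp only [MulAut.conj_apply, MulAut.one_apply] at this
      calc a * b = a * b * a⁻¹ * a := by group
        _ = b * a := by rw [this]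
  exact (Nat.card_congr (MonoidHom.ofInjective hinj).toEquiv).symm

theorem card_mulAut_plus_four {F : Type*} [Field F] [Fintype F] (p f : ℕ) [Fact p.Prime]
    (hF : Fintype.card F = p ^ f) :
    Nat.card (MulAut (Cfsg.POmega F (Cfsg.quadFormPlus 4 F))) =
      Nat.gcd 2 (p ^ f - 1) ^ 2 * 6 * f * Nat.card (Cfsg.POmega F (Cfsg.quadFormPlus 4 F)) := by
  have : CharP F p := charP_of_card_eq_prime_pow hF
  obtain ⟨e⟩ := Cfsg.Agent.S1082.result (F := F)
  obtain ⟨hs, hnc⟩ := Cfsg.Agent.S1054.result (F := F) chevD4 (by simp)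
  have hd := Cfsg.Agent.S1035.result (F := F) hF (chevD4, Nat.gcd 2 (p ^ f - 1) ^ 2) (by simp)
  have h := card_out_eq p f hF (D := chevD4) (by simp) hd (card_adm_D4 F)
  rw [← Nat.card_congr (MulAut.congr e).toEquiv, ← Nat.card_congr e.toEquiv,
    card_mulAut_of_simple _ hs hnc, h]

end Cfsg.Agent.Lib.Helper95.AutP
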