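import Cfsg.Agent.Lib.Helper49.GamOMinus
import Cfsg.Agent.S2695

set_option autoImplicit false

/-! The order of `Aut(PΩ⁺_{2m}(q))`, `m ≥ 5`. -/

namespace Cfsg.Agent.Lib.Helper95.AutP

open Cfsg.Agent.Lib.Helper18 Cfsg.Agent.Lib.Helper18.OmegaCenter Cfsg.Agent.Lib.Helper49

variable {F : Type*} [Field F] [Fintype F]

theorem pow_mod_four_eq_one_iff {q : ℕ} (hq : q % 2 = 1) (m : ℕ) :
    q ^ m % 4 = 1 ↔ Even (m * (q - 1) / 2) := by
  have h := pow_mod_four_eq_three_iff hq m
  have h2 : q ^ m % 2 = 1 := by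
    rw [Nat.pow_mod, hq]; simp
  constructor
  · intro h1
    by_contra hne
    have := h.2 hne
    omega
  · intro he
    have : ¬ q ^ m % 4 = 3 := fun h3 => (h.1 h3) he
    omega

/-- `|O⁺_{2m}(q)|` in terms of `|PΩ⁺|` -/
theorem card_isometryGroup_plus (p f : ℕ) [Fact p.Prime] (hF : Fintype.card F = p ^ f) (m : ℕ)
    (hm : 4 ≤ m) :
    Nat.card ↥(Cfsg.isometryGroup F (Cfsg.quadFormPlus m F)) =
      (if p = 2 then 2 else (if Even (m * (p ^ f - 1) / 2) then 8 else 4)) *
        Nat.card (Cfsg.POmega F (Cfsg.quadFormPlus m F)) := by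
  have hneg := fun hodd => Cfsg.Agent.S0790.result hF hodd m (by omega)
  rw [← plusQF_coe m F] at hneg ⊢
  have hQ := plusQF_nondegenerate m F
  have hfr : Frame3 (plusQF m F) _ _ := frame_plus m (by omega)
  have h := card_isometryGroup_eq (plusQF m F)
  have : Nonempty (Fin m ⊕ Fin m) := ⟨Sum.inl ⟨0, by omega⟩⟩
  have hchar : CharP F p := charP_of_card_eq_prime_pow hF
  by_cases hp : p = 2
  · subst hp
    have h2 : (2 : F) = 0 := by
      have := CharP.cast_eq_zero F 2
      exact_mod_cast this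
    have hidx : (Cfsg.Omega F ⇑(plusQF m F)).index = 2 :=
      index_Omega_char_two (plusQF m F) h2 hQ (Or.inr (by simp; omega))
    have hZ := card_center_eq_one (plusQF m F) hQ hfr (Or.inl h2)
    rw [hZ, hidx] at h
    rw [h, if_pos rfl]
    ring
  · have hpodd : Odd p := (Fact.out : p.Prime).odd_of_ne_two hp
    have hodd : Odd (p ^ f) := hpodd.pow
    have h2 : (2 : F) ≠ 0 := Cfsg.Agent.S0790.two_ne_zero_of_odd_card (hF ▸ hodd)
    have hidx : (Cfsg.Omega F ⇑(plusQF m F)).index = 4 :=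
      index_commutator (plusQF m F) h2 hQ (by simp; omega)
    rw [if_neg hp]
    have hiff := pow_mod_four_eq_one_iff (Nat.odd_iff.1 hodd) m
    by_cases h4 : (p ^ f) ^ m % 4 = 1
    · have hZ := card_center_eq_two (plusQF m F) hQ hfr h2 ((hneg hodd).2 h4)
      rw [hZ, hidx] at h
      rw [h, if_pos (hiff.1 h4)]
      ring
    · have hZ := card_center_eq_one (plusQF m F) hQ hfr
        (Or.inr (fun hh => h4 ((hneg hodd).1 hh)))
      rw [hZ, hidx] at h
      have : ¬ Even (m * (p ^ f - 1) / 2) := fun he => h4 (hiff.2 he)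
      rw [h, if_neg this]
      ring

theorem card_mulAut_plus (p f : ℕ) [Fact p.Prime] (hF : Fintype.card F = p ^ f) (m : ℕ)
    (hm : 5 ≤ m) :
    Nat.card (MulAut (Cfsg.POmega F (Cfsg.quadFormPlus m F))) =
      (if p = 2 then 2 else (if Even (m * (p ^ f - 1) / 2) then 8 else 4)) * f *
        Nat.card (Cfsg.POmega F (Cfsg.quadFormPlus m F)) := by
  have h1 := card_isometryGroup_plus p f hF m (by omega)
  have htop := Cfsg.Agent.S2695.result (F := F) hm
  obtain ⟨-, -, -, -, hf⟩ := exists_frob hF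
  have hQ := plusQF_nondegenerate m F
  rw [← plusQF_coe m F] at h1 htop ⊢
  rw [card_mulAut_of_gamma_top (plusQF m F) hQ (m - 1) (by simp; omega)
    (by simp; omega) htop, hf, h1]
  ring

end Cfsg.Agent.Lib.Helper95.AutP
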